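import Cfsg.Agent.RK.CaseB
import Cfsg.Agent.RK.SubS

/-! The Sylow 2-subgroup of `Q` is abelian or a Suzuki 2-group. -/

set_option autoImplicit false

namespace Cfsg.Agent.RK6

open Cfsg Cfsg.Agent.H20.RO Cfsg.Agent.RK

theorem suzuki_of_setup {P K : Type*} [Group P] [Group K] [MulDistribMulAction K P] (h : Suz2.Setup P K)
    (hK : IsCyclic K) (hna : ∃ x y : P, x * y ≠ y * x) : Cfsg.IsSuzukiTwoGroup P := by
  refine ⟨h.fin, h.p2, hna, h.two, (MulDistribMulAction.toMulAut K P).range, ?_, ?_⟩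
  · exact isCyclic_of_surjective (MulDistribMulAction.toMulAut K P).rangeRestrict
      (MulDistribMulAction.toMulAut K P).rangeRestrict_surjective
  · intro x y hx hxx hy hyy
    obtain ⟨k, hk, hu⟩ := h.reg x y hx hxx hy hyy
    refine ⟨⟨MulDistribMulAction.toMulAut K P k, k, rfl⟩, hk, ?_⟩
    rintro ⟨_, l, rfl⟩ hl
    apply Subtype.ext
    show MulDistribMulAction.toMulAut K P l = MulDistribMulAction.toMulAut K P k
    rw [hu l hl]

theorem suzuki_congr {P P' : Type*} [Group P] [Group P'] (e : P ≃* P') (h : Cfsg.IsSuzukiTwoGroup P) :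
    Cfsg.IsSuzukiTwoGroup P' := by
  obtain ⟨hf, hp, ⟨x, y, hxy⟩, ⟨u, v, huv, hu, huu, hv, hvv⟩, K, hK, hreg⟩ := h
  refine ⟨Finite.of_equiv P e.toEquiv, IsPGroup.of_equiv hp e, ⟨e x, e y, ?_⟩,
    ⟨e u, e v, fun h => huv (e.injective h), fun h => hu (by rw [← map_one e] at h; exact e.injective h), by
      rw [← map_mul, huu, map_one], fun h => hv (by rw [← map_one e] at h; exact e.injective h), by
      rw [← map_mul, hvv, map_one]⟩, K.map (MulAut.congr e).toMonoidHom, ?_, ?_⟩
  · intro h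
    apply hxy
    rw [← map_mul, ← map_mul] at h
    exact e.injective h
  · exact isCyclic_of_surjective ((MulAut.congr e).toMonoidHom.subgroupMap K)
      ((MulAut.congr e).toMonoidHom.subgroupMap_surjective K)
  · intro x y hx hxx hy hyy
    have h1 : ∀ z : P', z ≠ 1 → e.symm z ≠ 1 := by
      intro z hz h
      apply hz
      rw [← e.apply_symm_apply z, h, map_one]
    obtain ⟨⟨k, hkK⟩, hk, hu⟩ := hreg (e.symm x) (e.symm y) (h1 x hx) (by rw [← map_mul, hxx, map_one]) (h1 y hy)
      (by rw [← map_mul, hyy, map_one])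
    refine ⟨⟨MulAut.congr e k, k, hkK, rfl⟩, ?_, ?_⟩
    · show e (k (e.symm x)) = y
      have hk : k (e.symm x) = e.symm y := hk
      rw [hk, e.apply_symm_apply]
    · rintro ⟨_, l, hl, rfl⟩ hle
      have hle : e (l (e.symm x)) = y := hle
      have h2 := hu ⟨l, hl⟩ (by
        show l (e.symm x) = e.symm y
        rw [← hle, e.symm_apply_apply])
      apply Subtype.ext
      show MulAut.congr e l = MulAut.congr e k
      rw [show l = k from congrArg Subtype.val h2]

theorem sylow_abelian_or_suzuki {G Ω : Type*} [Group G] [Finite G] [MulAction G Ω] {a : Ω} {t : G} {Q C : Subgroup G}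
    (h : RS G Ω a t Q C) (S : Sylow 2 ↥Q) :
    IsMulCommutative (S : Subgroup ↥Q) ∨ Cfsg.IsSuzukiTwoGroup ↥(S : Subgroup ↥Q) := by
  have hf : Fact (Nat.Prime 2) := ⟨Nat.prime_two⟩
  by_cases hna : ∃ x y : (S : Subgroup ↥Q), x * y ≠ y * x
  · right
    have hnil := h.Q_nil
    have hSn : (S : Subgroup Q).Normal := inferInstance
    obtain ⟨S', hS'Q, hp, hall, -, hD, hE, m, hm, hcard⟩ := h.exists_S
    have hS'C : ∀ k ∈ C, ∀ x ∈ S', k * x * k⁻¹ ∈ S' := fun k hk x hx => hD k (h.C_D hk) x hx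
    have hmap : (S : Subgroup Q).map Q.subtype = S' := by
      apply le_antisymm
      · rintro _ ⟨x, hx, rfl⟩
        obtain ⟨j, hj⟩ := S.2 ⟨x, hx⟩
        refine hall _ x.2 j ?_
        have := congrArg Subtype.val hj
        exact congrArg Subtype.val this
      · intro x hx
        obtain ⟨j, hj⟩ := hp ⟨x, hx⟩
        have hj : x ^ 2 ^ j = 1 := congrArg Subtype.val hj
        have hp' : IsPGroup 2 (Subgroup.zpowers (⟨x, hS'Q hx⟩ : Q)) := by
          rintro ⟨_, ⟨m, rfl⟩⟩
          refine ⟨j, ?_⟩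
          apply Subtype.ext
          apply Subtype.ext
          change (x ^ m) ^ 2 ^ j = 1
          rw [← zpow_natCast, ← zpow_mul, mul_comm, zpow_mul, zpow_natCast, hj, one_zpow]
        obtain ⟨P', hP'⟩ := hp'.exists_le_sylow
        have hPP : P' = S := by
          have := Sylow.unique_of_normal S hSn
          exact Subsingleton.elim _ _
        rw [hPP] at hP'
        exact ⟨⟨x, hS'Q hx⟩, hP' (Subgroup.mem_zpowers _), rfl⟩
    have e : (S : Subgroup Q) ≃* S' :=
      ((S : Subgroup Q).equivMapOfInjective Q.subtype Q.subtype_injective).trans (MulEquiv.subgroupCongr hmap)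
    let _ := RS.actS hS'C
    refine suzuki_congr e.symm (suzuki_of_setup (h.setupS hS'Q hS'C hE hp) h.cyc ?_)
    obtain ⟨x, y, hxy⟩ := hna
    refine ⟨e x, e y, fun h => hxy ?_⟩
    rw [← map_mul, ← map_mul] at h
    exact e.injective h
  · left
    push Not at hna
    exact ⟨⟨hna⟩⟩

end Cfsg.Agent.RK6
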